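import Mathlib
import Cfsg.Agent.Lib.PLen.HHB
import Cfsg.Agent.Lib.PGroup.Critical
import Cfsg.Agent.Lib.Coprime.Abelian
import Cfsg.Agent.Lib.Core.MinNormal

/-!
`p`-soluble groups whose elements of order `p` cannot be separated by characteristic subgroups.
-/

set_option autoImplicit false

namespace CfsgLib.TwoLen

open Subgroup Cfsg CfsgLib.PLocal CfsgLib.Core CfsgLib.PLen
open scoped commutatorElement Pointwise

universe u v

variable {p : ℕ}

/-- characteristic subgroups do not separate elements of order `p` -/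
def OneClass (p : ℕ) (G : Type u) [Group G] : Prop :=
  ∀ C : Subgroup G, C.Characteristic → ∀ x y : G, orderOf x = p → orderOf y = p → x ∈ C → y ∈ C

theorem exists_order_lift {G : Type u} {X : Type v} [Group G] [Group X] [Finite G]
    [hp : Fact p.Prime] {f : G →* X} (hf : Function.Surjective f)
    (hk : (Nat.card f.ker).Coprime p) {y : X} (hy : orderOf y = p) :
    ∃ x : G, f x = y ∧ orderOf x = p := by
  obtain ⟨x, rfl, k, hk'⟩ := exists_pElem_lift (p := p) hf (y := y)
    ⟨1, by rw [pow_one, ← hy, pow_orderOf_eq_one]⟩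
  refine ⟨x, rfl, ?_⟩
  have h1 : x ^ p ∈ f.ker := by rw [MonoidHom.mem_ker, map_pow, ← hy, pow_orderOf_eq_one]
  have h2 : x ^ p = 1 := by
    have h3 := subgroup_coprime_card_iff.1 hk _ h1
    have h4 : orderOf (x ^ p) ∣ p ^ k := orderOf_dvd_of_pow_eq_one (by
      rw [← pow_mul, mul_comm, pow_mul, hk', one_pow])
    exact orderOf_eq_one_iff.1 ((Nat.coprime_self _).1
      (Nat.Coprime.coprime_dvd_right h4 (h3.pow_right k)))
  refine orderOf_eq_prime h2 ?_
  rintro rfl
  rw [map_one, orderOf_one] at hy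
  exact hp.out.one_lt.ne hy

theorem OneClass.quotient {G : Type u} [Group G] [Finite G] [Fact p.Prime] (h : OneClass p G)
    (N : Subgroup G) [N.Characteristic] (hN : (Nat.card N).Coprime p) : OneClass p (G ⧸ N) := by
  intro C hC x y hx hy hxC
  have hk : (Nat.card (QuotientGroup.mk' N).ker).Coprime p := by rwa [QuotientGroup.ker_mk']
  obtain ⟨x, rfl, hx'⟩ := exists_order_lift (QuotientGroup.mk'_surjective N) hk hx
  obtain ⟨y, rfl, hy'⟩ := exists_order_lift (QuotientGroup.mk'_surjective N) hk hy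
  exact h (C.comap (QuotientGroup.mk' N)) (Characteristic.comap_quotient_mk hC) x y hx' hy' hxC

/-- `O_{p,p'}(G)` -/
def opp (p : ℕ) (G : Type u) [Group G] : Subgroup G :=
  (pPrimeCore p (G ⧸ pCore p G)).comap (QuotientGroup.mk' (pCore p G))

theorem opp_characteristic (p : ℕ) (G : Type u) [Group G] [Finite G] :
    (opp p G).Characteristic := by
  have := PSolv.pCore_characteristic (p := p) (G := G)
  exact Characteristic.comap_quotient_mk PSolv.pPrimeCore_characteristic

theorem pCore_le_opp (p : ℕ) (G : Type u) [Group G] : pCore p G ≤ opp p G := fun x hx => by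
  rw [opp, mem_comap, QuotientGroup.mk'_apply, (QuotientGroup.eq_one_iff x).2 hx]
  exact one_mem _

theorem exists_opp_complement (p : ℕ) [Fact p.Prime] (G : Type u) [Group G] [Finite G] :
    ∃ K : Subgroup G, (Nat.card K).Coprime p ∧ pCore p G ⊔ K = opp p G := by
  have h1 : (pCore p G).relIndex (opp p G) = Nat.card (pPrimeCore p (G ⧸ pCore p G)) := by
    have h2 := card_mul_relIndex_of_le (pCore_le_opp p G)
    rw [opp, card_comap_mk', mul_comm] at h2
    exact Nat.eq_of_mul_eq_mul_right Nat.card_pos h2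
  have h3 : ((pCore p G).relIndex (opp p G)).Coprime p := h1 ▸ PSolv.coprime_card_pPrimeCore
  obtain ⟨K, -, -, h4, h5⟩ := Coprime.exists_complement_of_le_normalizer (pCore_le_opp p G)
    le_normalizer_of_normal (isPGroup_coprime_card PSolv.isPGroup_pCore h3)
  exact ⟨K, h5 ▸ h3, h4⟩

theorem pCore_le_pPrimePCore (p : ℕ) (G : Type u) [Group G] [Finite G] :
    pCore p G ≤ pPrimePCore p G :=
  le_pPrimePCore (M := ⊥) (by simp) fun x hx => by
    simpa using isPGroup_subgroup_iff.1 PSolv.isPGroup_pCore x hx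

/-- Frattini argument for the complements of `O_p` in `O_{p,p'}` -/
theorem exists_mul_normalizer {G : Type u} [Group G] [Finite G] [Fact p.Prime] {K : Subgroup G}
    (hK : (Nat.card K).Coprime p) (hL : pCore p G ⊔ K = opp p G) (g : G) :
    ∃ v ∈ pCore p G, v * g ∈ normalizer (K : Set G) := by
  have := opp_characteristic p G
  obtain ⟨v, hv, e⟩ := Coprime.exists_conj_smul_eq_of_le_sup (K := pCore p G)
    (A := MulAut.conj g • K) (S := K) le_normalizer_of_normal
    (by
      rw [hL]
      exact Coprime.conj_smul_le_of_mem_normalizer (le_normalizer_of_normal (mem_top g))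
        (hL ▸ le_sup_right))
    (by rw [card_conj_smul]; exact (isPGroup_coprime_card PSolv.isPGroup_pCore hK).symm)
    (Or.inr (Coprime.isSolvable_of_isPGroup PSolv.isPGroup_pCore)) (card_conj_smul _ _).ge
  exact ⟨v, hv, mem_normalizer_iff_conj_smul_eq.2 (by rw [map_mul, mul_smul, e])⟩

theorem plen_one_of_opp_le {G : Type u} [Group G] [Finite G] [Fact p.Prime]
    (hG : IsPSolvable p G) (h : opp p G ≤ pCore p G) : PLengthLE p 1 G := by
  refine plen_succ_of_quotient (pCore_le_pPrimePCore p G) (plen_zero_iff.2 ?_)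
  rcases subsingleton_or_nontrivial (G ⧸ pCore p G) with h1 | h1
  · simp
  · refine ((PSolv.pCore_ne_bot_or (PSolv.quotient hG (pCore p G))).elim
      (fun h2 => h2 PSolv.pCore_quotient) fun h2 => h2 ?_).elim
    rw [eq_bot_iff]
    intro y hy
    obtain ⟨x, rfl⟩ := QuotientGroup.mk'_surjective _ y
    exact (QuotientGroup.eq_one_iff x).2 (h hy)

theorem OneClass.mem_center {G : Type u} [Group G] [Finite G] [Fact p.Prime] (h : OneClass p G)
    (hV : pCore p G ≠ ⊥) {x : G} (hx : orderOf x = p) :
    x ∈ pCore p G ⊓ centralizer (pCore p G : Set G) := by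
  have := PSolv.pCore_characteristic (p := p) (G := G)
  obtain ⟨z, hz, hzp⟩ := exists_mem_orderOf_eq_of_isPGroup
    (H := pCore p G ⊓ centralizer (pCore p G : Set G)) (PSolv.isPGroup_pCore.to_le inf_le_left)
    (Coprime.inf_centralizer_ne_bot_of_isPGroup PSolv.isPGroup_pCore _ PSolv.isPGroup_pCore
      le_normalizer hV)
  exact h _ (PGroup.inf_characteristic _ _) z x hzp hx hz

theorem OneClass.plen_one_or {G : Type u} [Group G] [Finite G] [hp : Fact p.Prime]
    (h : OneClass p G) (hV : pCore p G ≠ ⊥) :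
    PLengthLE p 1 G ∨ ∀ x : G, orderOf x = p → x ∈ centralizer (opp p G : Set G) := by
  have := opp_characteristic p G
  by_cases h1 : ∃ z : G, orderOf z = p ∧ z ∈ centralizer (opp p G : Set G)
  · obtain ⟨z, hz, hzc⟩ := h1
    exact Or.inr fun x hx => h _ inferInstance z x hz hx hzc
  left
  obtain ⟨K, hK, hL⟩ := exists_opp_complement p G
  have h2 : (Nat.card (normalizer (K : Set G))).Coprime p := by
    rw [Nat.coprime_comm, hp.out.coprime_iff_not_dvd]
    intro h3
    obtain ⟨x, hx, hxp⟩ := exists_mem_orderOf_eq_of_dvd_card hp.out h3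
    have h4 := h.mem_center hV hxp
    refine h1 ⟨x, hxp, ?_⟩
    rw [← hL, centralizer_sup]
    refine ⟨h4.2, fun k hk => ?_⟩
    have h5 : ⁅k, x⁆ ∈ pCore p G ⊓ K := ⟨PGroup.commutatorElement_mem_of_right k h4.1, by
      rw [commutatorElement_def, mul_assoc, mul_assoc, ← mul_assoc x]
      exact mul_mem hk ((mem_normalizer_iff.1 hx _).1 (inv_mem hk))⟩
    rwa [isPGroup_inf_eq_bot_of_coprime PSolv.isPGroup_pCore hK, mem_bot,
      commutatorElement_eq_one_iff_mul_comm] at h5
  refine plen_succ_of_quotient (pCore_le_pPrimePCore p G) (plen_zero_iff.2 ?_)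
  refine Nat.Coprime.coprime_dvd_left (card_dvd_of_surjective
    ((QuotientGroup.mk' (pCore p G)).comp (normalizer (K : Set G)).subtype) fun y => ?_) h2
  obtain ⟨g, rfl⟩ := QuotientGroup.mk'_surjective _ y
  obtain ⟨v, hv, hvg⟩ := exists_mul_normalizer hK hL g
  refine ⟨⟨v * g, hvg⟩, ?_⟩
  simp [(QuotientGroup.eq_one_iff v).2 hv]

theorem OneClass.plen_one_of_odd' {G : Type u} [Group G] [Finite G] [hp : Fact p.Prime]
    (h2 : p ≠ 2) (hG : IsPSolvable p G) (hc : centralizer (pCore p G : Set G) ≤ pCore p G)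
    (h : OneClass p G) : PLengthLE p 1 G := by
  by_cases hV : pCore p G = ⊥
  · refine plen_one_of_isPGroup fun x => ⟨0, ?_⟩
    rw [pow_zero, pow_one, ← mem_bot, ← hV]
    refine hc fun y hy => ?_
    rw [hV] at hy
    rw [mem_bot.1 hy, one_mul, mul_one]
  refine (h.plen_one_or hV).elim id fun h1 => plen_one_of_opp_le hG ?_
  obtain ⟨K, hK, hL⟩ := exists_opp_complement p G
  rw [← hL]
  refine sup_le le_rfl fun k hk => hc fun v hv => ?_
  have h3 := PGroup.aut_apply_eq_of_fix_pow_eq_one (p := p) (n := 1) one_ne_zero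
    (by rwa [pow_one]) (a := MulAut.conj k)
    (Nat.Coprime.coprime_dvd_left (orderOf_map_dvd _ k) (subgroup_coprime_card_iff.1 hK k hk))
    PSolv.isPGroup_pCore (fun x hx => (pCore_normal p G).conj_mem x hx k) (fun x _ hx => by
      by_cases hx1 : x = 1
      · rw [hx1, map_one]
      rw [pow_one] at hx
      rw [MulAut.conj_apply, h1 x (orderOf_eq_prime hx hx1) k (hL ▸ mem_sup_right hk),
        mul_inv_cancel_right]) v hv
  rw [MulAut.conj_apply, mul_inv_eq_iff_eq_mul] at h3
  exact h3.symm

theorem OneClass.plen_one_of_odd {G : Type u} [Group G] [Finite G] [hp : Fact p.Prime]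
    (h2 : p ≠ 2) (hG : IsPSolvable p G) (h : OneClass p G) : PLengthLE p 1 G := by
  have := PSolv.pPrimeCore_characteristic (p := p) (G := G)
  refine plen_of_coprime_ker (QuotientGroup.mk'_surjective (pPrimeCore p G))
    (by rw [QuotientGroup.ker_mk']; exact PSolv.coprime_card_pPrimeCore) ?_
  replace hG := PSolv.quotient hG (pPrimeCore p G)
  exact (h.quotient (pPrimeCore p G) PSolv.coprime_card_pPrimeCore).plen_one_of_odd' h2 hG
    (PSolv.centralizer_pCore_le hG PSolv.pPrimeCore_quotient)

end CfsgLib.TwoLen
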