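import Mathlib
import Cfsg.Agent.Lib.TwoLen.OneClass
import Cfsg.Agent.Lib.Coprime.Generation
import Cfsg.Agent.Lib.HH.Weights

/-!
Groups `E` of exponent `4` whose involutions are central and conjugate in an ambient group:
the number of square roots of an involution is `q` or `q (q + 1)`.
-/

set_option autoImplicit false

namespace CfsgLib.TwoLen

open Subgroup Cfsg CfsgLib.Core Finset
open scoped commutatorElement

universe u

variable {G : Type u} [Group G]

theorem exists_conj_fixed_of_not_dvd {s k : ℕ} (hs : s.Prime) {S : Finset G} {a : G}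
    (hS : ∀ x ∈ S, a * x * a⁻¹ ∈ S) (ha : a ^ s ^ k = 1) (h : ¬ s ∣ S.card) :
    ∃ x ∈ S, a * x * a⁻¹ = x := by
  classical
  have := Fact.mk hs
  let f : Function.End S := fun x => ⟨a * x * a⁻¹, hS x x.2⟩
  have hf : ∀ (n : ℕ) (x : S), ((f ^ n) x : G) = a ^ n * x * (a ^ n)⁻¹ := by
    intro n
    induction n with
    | zero => intro x; simp [Function.End.one_def]
    | succ n ih =>
      intro x
      rw [pow_succ']
      change a * ((f ^ n) x : G) * a⁻¹ = _
      rw [ih, pow_succ']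
      group
  have h1 := Equiv.Perm.card_fixedPoints_modEq (f := f) (p := s) (n := k) (by
    funext x
    exact Subtype.ext (by rw [hf, ha]; simp [Function.End.one_def]))
  by_contra hcon
  push Not at hcon
  have h2 : IsEmpty f.fixedPoints := ⟨fun x => hcon x.1 x.1.2 (congrArg Subtype.val x.2)⟩
  rw [Fintype.card_eq_zero (α := f.fixedPoints), Fintype.card_coe] at h1
  exact h (Nat.modEq_zero_iff_dvd.1 h1)

theorem sum_eq_zero_of_neg [Fintype G] (K : Subgroup G) [DecidablePred (· ∈ K)] (φ : G → ℤ)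
    {k : G} (hk : k ∈ K) (h : ∀ x ∈ K, φ (k * x) = -φ x) :
    ∑ x ∈ univ.filter (· ∈ K), φ x = 0 := by
  have h1 : ∑ x ∈ univ.filter (· ∈ K), φ x = ∑ x ∈ univ.filter (· ∈ K), φ (k * x) := by
    refine (sum_nbij' (fun x => k * x) (fun x => k⁻¹ * x) ?_ ?_ ?_ ?_ ?_).symm
    · intro x hx
      simpa using K.mul_mem hk (by simpa using hx)
    · intro x hx
      simpa using K.mul_mem (K.inv_mem hk) (by simpa using hx)
    · intro x _
      simp
    · intro x _
      simp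
    · intro x _
      rfl
  rw [sum_congr rfl fun x hx => h x (by simpa using hx), sum_neg_distrib] at h1
  omega

theorem card_filter_mem [Fintype G] (K : Subgroup G) [DecidablePred (· ∈ K)] :
    (univ.filter (· ∈ K)).card = Nat.card K := by
  rw [Nat.card_eq_fintype_card, Fintype.card_subtype]

/-- `W` is the set of all elements of order at most `2`, it is central in `E`, contains all
squares of `E`, and its involutions are conjugate -/
structure Aniso (W E : Subgroup G) : Prop where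
  le : W ≤ E
  cent : ∀ w ∈ W, ∀ x ∈ E, w * x = x * w
  sq : ∀ x ∈ E, x ^ 2 ∈ W
  inv : ∀ x : G, x ∈ W ↔ x ^ 2 = 1
  normal : E.Normal
  conj : ∀ x y : G, x ≠ 1 → x ^ 2 = 1 → y ≠ 1 → y ^ 2 = 1 → IsConj x y

namespace Aniso

variable {W E : Subgroup G}

theorem comm_mem (h : Aniso W E) {x y : G} (hx : x ∈ E) (hy : y ∈ E) : ⁅x, y⁆ ∈ W := by
  have h1 := h.sq _ (mul_mem hx hy)
  have h2 := h.sq _ hx
  have h3 := h.sq _ hy
  have h4 := h.cent _ h2 _ hy
  have : ⁅x, y⁆ = (x * y) ^ 2 * (y⁻¹ * (x ^ 2)⁻¹ * y) * (y ^ 2)⁻¹ * (y * (x * x⁻¹) * y⁻¹) := by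
    have h5 := h.cent _ h3 _ hx
    rw [commutatorElement_def]
    calc x * y * x⁻¹ * y⁻¹ = (x * y) ^ 2 * (y⁻¹ * (x ^ 2)⁻¹ * y) * (y ^ 2)⁻¹ := by
          rw [pow_two, pow_two, pow_two]; group
      _ = _ := by group
  rw [this, show y⁻¹ * (x ^ 2)⁻¹ * y = (x ^ 2)⁻¹ by
    rw [mul_assoc, h.cent _ (inv_mem h2) _ hy]; group]
  simpa using mul_mem (mul_mem h1 (inv_mem h2)) (inv_mem h3)

theorem mul_sq (h : Aniso W E) {x y : G} (hx : x ∈ E) (hy : y ∈ E) :
    (x * y) ^ 2 = x ^ 2 * ⁅y, x⁆ * y ^ 2 := by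
  have h1 := h.cent _ (h.comm_mem hy hx) _ hx
  calc (x * y) ^ 2 = x * (⁅y, x⁆ * x) * y ^ 2 := by
        rw [commutatorElement_def, pow_two, pow_two]; group
    _ = _ := by rw [h1, pow_two x]; group

theorem card_fiber_eq [Fintype G] [DecidableEq G] [DecidablePred (· ∈ E)] (h : Aniso W E)
    {w w' : G} (hw : w ∈ W) (hw1 : w ≠ 1) (hw' : w' ∈ W) (hw1' : w' ≠ 1) :
    ((univ.filter (· ∈ E)).filter (fun x => x ^ 2 = w)).card =
      ((univ.filter (· ∈ E)).filter (fun x => x ^ 2 = w')).card := by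
  obtain ⟨g, rfl⟩ := isConj_iff.1 (h.conj w w' hw1 ((h.inv w).1 hw) hw1' ((h.inv w').1 hw'))
  refine card_nbij' (fun x => g * x * g⁻¹) (fun x => g⁻¹ * x * g) ?_ ?_ ?_ ?_
  · intro x hx
    simp only [coe_filter, mem_filter, Finset.mem_univ, true_and, Set.mem_ofPred_eq] at hx ⊢
    exact ⟨h.normal.conj_mem x hx.1 g, by rw [← hx.2, conj_pow]⟩
  · intro x hx
    simp only [coe_filter, mem_filter, Finset.mem_univ, true_and, Set.mem_ofPred_eq] at hx ⊢
    refine ⟨by simpa using h.normal.conj_mem x hx.1 g⁻¹, ?_⟩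
    have := conj_pow (i := 2) (a := g⁻¹) (b := x)
    rw [inv_inv] at this
    rw [this, hx.2]
    group
  · intro x _
    simp only
    group
  · intro x _
    simp only
    group

theorem sum_sq [Fintype G] [DecidableEq G] [DecidablePred (· ∈ E)] [DecidablePred (· ∈ W)]
    (h : Aniso W E) {w : G} (hw : w ∈ W) (hw1 : w ≠ 1) (φ : G → ℤ) :
    ∑ x ∈ univ.filter (· ∈ E), φ (x ^ 2) = Nat.card W * φ 1 +
      ((univ.filter (· ∈ E)).filter (fun x => x ^ 2 = w)).card *
        (∑ v ∈ univ.filter (· ∈ W), φ v - φ 1) := by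
  rw [← sum_fiberwise_of_maps_to (t := univ.filter (· ∈ W)) (g := fun x => x ^ 2)
    (fun x hx => by simpa using h.sq x (by simpa using hx))]
  have h1 : (1 : G) ∈ univ.filter (· ∈ W) := by simp
  rw [← add_sum_erase _ _ h1, ← add_sum_erase _ φ h1, add_sub_cancel_left, mul_sum]
  congr 1
  · rw [sum_congr rfl (g := fun _ => φ 1) fun x hx => by rw [(mem_filter.1 hx).2], sum_const,
      nsmul_eq_mul, ← card_filter_mem]
    congr 3
    ext x
    simp only [mem_filter, Finset.mem_univ, true_and, h.inv]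
    exact ⟨fun h1 => h1.2, fun h1 => ⟨h.le ((h.inv x).2 h1), h1⟩⟩
  · refine sum_congr rfl fun v hv => ?_
    rw [mem_erase, mem_filter] at hv
    rw [sum_congr rfl (g := fun _ => φ v) fun x hx => by rw [(mem_filter.1 hx).2], sum_const,
      nsmul_eq_mul, h.card_fiber_eq hv.2.2 hv.1 hw hw1]

theorem card_dvd_sq [Fintype G] [DecidablePred (· ∈ E)] (h : Aniso W E) {H : Subgroup G}
    (hH : H ≤ W) (f : G → ℤ) (hf : ∀ a ∈ W, ∀ b ∈ W, f (a * b) = f a * f b)
    (hf1 : ∀ a ∈ H, f a = 1) (hf2 : ∀ a, a ∉ H → f a = -1) :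
    ((Nat.card E * Nat.card W : ℕ) : ℤ) ∣ (∑ x ∈ univ.filter (· ∈ E), f (x ^ 2)) ^ 2 := by
  classical
  set R := E ⊓ commutatorStabilizer E H with hR
  have hEH : E ≤ normalizer (H : Set G) := fun x hx =>
    centralizer_le_normalizer _ fun w hw => h.cent w (hH hw) x hx
  have hsq : ∀ a, f a * f a = 1 := fun a => by
    by_cases ha : a ∈ H
    · rw [hf1 a ha, one_mul]
    · rw [hf2 a ha]; norm_num
  have h1 : (∑ x ∈ univ.filter (· ∈ E), f (x ^ 2)) ^ 2 = ∑ z ∈ univ.filter (· ∈ E),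
      f (z ^ 2) * ∑ x ∈ univ.filter (· ∈ E), f ⁅z, x⁆ := by
    rw [pow_two, sum_mul_sum]
    simp only [mul_sum]
    rw [sum_comm (f := fun z x => f (z ^ 2) * f ⁅z, x⁆)]
    refine sum_congr rfl fun x hx => ?_
    have hx' : x ∈ E := by simpa using hx
    refine (sum_nbij' (fun z => x * z) (fun z => x⁻¹ * z) ?_ ?_ ?_ ?_ ?_).symm
    · intro z hz
      simpa using E.mul_mem hx' (by simpa using hz)
    · intro z hz
      simpa using E.mul_mem (E.inv_mem hx') (by simpa using hz)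
    · intro z _
      simp
    · intro z _
      simp
    · intro z hz
      have hz' : z ∈ E := by simpa using hz
      rw [h.mul_sq hx' hz', hf _ (mul_mem (h.sq x hx') (h.comm_mem hz' hx')) _ (h.sq z hz'),
        hf _ (h.sq x hx') _ (h.comm_mem hz' hx'), ← mul_assoc, ← mul_assoc, hsq]
      ring
  have h2 : ∀ z ∈ E, ∑ x ∈ univ.filter (· ∈ E), f ⁅z, x⁆ =
      if z ∈ R then (Nat.card E : ℤ) else 0 := by
    intro z hz
    split_ifs with hzR
    · rw [sum_congr rfl (g := fun _ => (1 : ℤ)) fun x hx => hf1 _ (hzR.2.2 x (by simpa using hx)),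
        sum_const, card_filter_mem, nsmul_eq_mul, mul_one]
    · obtain ⟨k, hk, hzk⟩ : ∃ k ∈ E, ⁅z, k⁆ ∉ H := by
        by_contra hcon
        push Not at hcon
        exact hzR ⟨hz, hEH hz, hcon⟩
      refine sum_eq_zero_of_neg E (fun x => f ⁅z, x⁆) hk fun x hx => ?_
      rw [commutatorElement_mul_right_of_commute (h.cent _ (h.comm_mem hz hx) k hk).symm,
        hf _ (h.comm_mem hz hk) _ (h.comm_mem hz hx), hf2 _ hzk, neg_one_mul]
  have h3 : ∑ z ∈ univ.filter (· ∈ E), f (z ^ 2) * ∑ x ∈ univ.filter (· ∈ E), f ⁅z, x⁆ =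
      Nat.card E * ∑ z ∈ univ.filter (· ∈ R), f (z ^ 2) := by
    rw [sum_congr rfl fun z hz => by rw [h2 z (by simpa using hz)], mul_sum]
    simp only [mul_ite, mul_zero, ← sum_filter, filter_filter]
    refine sum_congr ?_ fun z _ => mul_comm _ _
    ext z
    simp only [mem_filter, Finset.mem_univ, true_and]
    exact ⟨fun h => h.2, fun h => ⟨h.1, h⟩⟩
  rw [h1, h3, Nat.cast_mul]
  refine mul_dvd_mul_left _ ?_
  by_cases h4 : ∀ z ∈ R, z ^ 2 ∈ H
  · rw [sum_congr rfl (g := fun _ => (1 : ℤ)) fun z hz => hf1 _ (h4 z (by simpa using hz)),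
      sum_const, card_filter_mem, nsmul_eq_mul, mul_one]
    refine Int.natCast_dvd_natCast.2 (card_dvd_of_le fun w hw => ⟨h.le hw, hEH (h.le hw),
      fun c hc => ?_⟩)
    rw [commutatorElement_eq_one_iff_mul_comm.2 (h.cent w hw c hc)]
    exact one_mem _
  · push Not at h4
    obtain ⟨k, hk, hk2⟩ := h4
    rw [sum_eq_zero_of_neg R (fun z => f (z ^ 2)) hk fun z hz => ?_]
    · exact dvd_zero _
    rw [h.mul_sq hk.1 hz.1, hf _ (mul_mem (h.sq k hk.1) (h.comm_mem hz.1 hk.1)) _ (h.sq z hz.1),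
      hf _ (h.sq k hk.1) _ (h.comm_mem hz.1 hk.1), hf2 _ hk2, hf1 _ (hz.2.2 k hk.1)]
    ring

theorem arith {e q M s n j : ℕ} (hs : s.Prime) (hs2 : s ≠ 2) (hq : q = 2 ^ n) (he : e = 2 ^ j)
    (hn : n ≠ 0) (h1 : (e : ℤ) = q + M * (q - 1)) (hlt : q < e)
    (h2 : ((e * q : ℕ) : ℤ) ∣ ((q : ℤ) - M) ^ 2) (hsq : s ∣ q - 1) : ¬ s ∣ M := by
  intro hsM
  have hq1 : 2 ≤ q := by
    rw [hq]
    exact le_self_pow₀ (by norm_num) hn
  have hnj : n < j := by
    rw [hq, he] at hlt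
    exact (Nat.pow_lt_pow_iff_right (by norm_num)).1 hlt
  have h3 : (q : ℤ) ∣ e := by
    rw [hq, he]
    exact_mod_cast pow_dvd_pow 2 hnj.le
  have h4 : ((e * q : ℕ) : ℤ) ∣ (q : ℤ) ^ 4 := by
    obtain ⟨m, hm⟩ := h3
    have h5 : (q : ℤ) ^ 4 = ((q : ℤ) - 1) ^ 2 * ((q : ℤ) - M) ^ 2 + (e * q) * (2 * q - m) := by
      have h6 : ((q : ℤ) - 1) * ((q : ℤ) - M) = q ^ 2 - e := by rw [h1]; ring
      rw [← mul_pow, h6, hm]
      ring
    rw [h5]
    exact dvd_add (h2.mul_left _) (by push_cast; exact dvd_mul_right _ _)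
  have h5 : j + n ≤ n * 4 := by
    rw [hq, he] at h4
    have h6 : 2 ^ (j + n) ∣ 2 ^ (n * 4) := by
      rw [pow_add, pow_mul]
      exact_mod_cast h4
    exact (Nat.pow_dvd_pow_iff_le_right (by norm_num)).1 h6
  have h6 : n ∣ j := by
    have h7 : 2 ^ n - 1 ∣ 2 ^ j - 1 := by
      rw [← hq, ← he]
      refine ⟨M + 1, ?_⟩
      zify [show 1 ≤ q by omega, show 1 ≤ e by omega]
      rw [h1]
      ring
    have h8 := Nat.pow_sub_one_mod_pow_sub_one 2 n j
    rw [Nat.mod_eq_zero_of_dvd h7] at h8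
    have h9 : 2 ^ (j % n) ≤ 1 := by omega
    exact Nat.dvd_of_mod_eq_zero (by
      by_contra h10
      have := Nat.one_lt_two_pow h10
      omega)
  obtain ⟨t, rfl⟩ := h6
  have ht : t = 2 ∨ t = 3 := by
    have h7 : 1 < t := by
      by_contra h8
      have : n * t ≤ n * 1 := Nat.mul_le_mul_left _ (by omega)
      omega
    have h8 : t ≤ 3 := by
      by_contra h8
      have : n * 4 ≤ n * t := Nat.mul_le_mul_left _ (by omega)
      omega
    omega
  rw [pow_mul, ← hq] at he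
  have hq0 : (q : ℤ) - 1 ≠ 0 := by omega
  have hsq' : (s : ℤ) ∣ (q : ℤ) - 1 := by
    have := Int.natCast_dvd_natCast.2 hsq
    rwa [Nat.cast_sub (by omega)] at this
  have hsM' : (s : ℤ) ∣ M := Int.natCast_dvd_natCast.2 hsM
  have h7 : (s : ℤ) ∣ 2 := by
    rcases ht with rfl | rfl
    · have h8 : (M : ℤ) = q := mul_right_cancel₀ hq0 (by
        rw [he] at h1; push_cast at h1; linear_combination -h1)
      rw [h8] at hsM'
      simpa using (dvd_sub hsM' hsq').mul_left 2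
    · have h8 : (M : ℤ) = q * (q + 1) := mul_right_cancel₀ hq0 (by
        rw [he] at h1; push_cast at h1; linear_combination -h1)
      rw [h8] at hsM'
      have h9 := dvd_sub hsM' (hsq'.mul_right (q + 2))
      rwa [show (q : ℤ) * (q + 1) - (q - 1) * (q + 2) = 2 by ring] at h9
  exact hs2 ((Nat.prime_dvd_prime_iff_eq hs Nat.prime_two).1 (by exact_mod_cast h7))

theorem pow_four (h : Aniso W E) {x : G} (hx : x ∈ E) : x ^ 2 ^ 2 = 1 := by
  rw [pow_two 2, pow_mul]
  exact (h.inv _).1 (h.sq x hx)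

theorem isPGroup (h : Aniso W E) : IsPGroup 2 E :=
  isPGroup_subgroup_iff.2 fun _ hx => ⟨2, h.pow_four hx⟩

/-- an element of odd order which acts trivially on `W` and on `E / W` centralizes `E` -/
theorem comm_of_mem (h : Aniso W E) {a : G} (ha : Odd (orderOf a))
    (haW : a ∈ centralizer (W : Set G)) {x : G} (hx : a * x * a⁻¹ * x⁻¹ ∈ W) : a * x = x * a :=
  HH.comm_of_comm_fixed (Nat.coprime_two_right.2 ha) (pow_orderOf_eq_one a) ((h.inv _).1 hx)
    (haW _ hx).symm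

theorem centralizes [Finite G] (h : Aniso W E) {s k : ℕ} (hs : s.Prime) (hs2 : s ≠ 2)
    (hsq : s ∣ Nat.card W - 1) (hW : W ≠ ⊥) {a : G} (ha : a ^ s ^ k = 1)
    (haW : a ∈ centralizer (W : Set G)) : a ∈ centralizer (E : Set G) := by
  classical
  have := Fintype.ofFinite G
  have hcop : (s ^ k).Coprime (2 ^ 2) :=
    Nat.Coprime.pow _ _ ((Nat.coprime_primes hs Nat.prime_two).2 hs2)
  intro x hx
  set u := a * x * a⁻¹ * x⁻¹ with hu
  have huE : u ∈ E := mul_mem (h.normal.conj_mem x hx a) (inv_mem hx)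
  refine (HH.comm_of_comm_fixed hcop ha (h.pow_four huE) ?_).symm
  rw [← hu]
  by_cases huW : u ∈ W
  · exact (haW u huW).symm
  have hw1 : u ^ 2 ≠ 1 := fun h1 => huW ((h.inv u).2 h1)
  obtain ⟨H, hH, hHi⟩ := Coprime.exists_relIndex_eq_prime (h.isPGroup.to_le h.le) hW
  set f : G → ℤ := fun y => if y ∈ H then 1 else -1 with hf
  have hfm : ∀ a ∈ W, ∀ b ∈ W, f (a * b) = f a * f b := by
    intro a ha b hb
    have h1 : a * b ∈ H ↔ (a ∈ H ↔ b ∈ H) :=
      mul_mem_iff_of_index_two (H := H.subgroupOf W) hHi (a := ⟨a, ha⟩) (b := ⟨b, hb⟩)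
    simp only [hf, h1]
    by_cases h2 : a ∈ H <;> by_cases h3 : b ∈ H <;> simp [h2, h3]
  obtain ⟨w, hw, hwH⟩ : ∃ w ∈ W, w ∉ H := by
    by_contra hcon
    push Not at hcon
    rw [relIndex_eq_one.2 hcon] at hHi
    omega
  have h1 := h.card_dvd_sq hH f hfm (fun a ha => if_pos ha) fun a ha => if_neg ha
  rw [h.sum_sq (h.sq u huE) hw1, sum_eq_zero_of_neg W f hw fun x hx => by
    rw [hfm w hw x hx, show f w = -1 from if_neg hwH, neg_one_mul],
    show f 1 = 1 from if_pos (one_mem H), mul_one, zero_sub, mul_neg_one, ← sub_eq_add_neg] at h1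
  have h2 := h.sum_sq (h.sq u huE) hw1 fun _ => 1
  simp only [sum_const, card_filter_mem, nsmul_eq_mul, mul_one] at h2
  obtain ⟨n, hn⟩ := (h.isPGroup.to_le h.le).exists_card_eq
  obtain ⟨j, hj⟩ := h.isPGroup.exists_card_eq
  have h3 := arith hs hs2 hn hj (by
      rintro rfl
      exact hW (card_eq_one.1 hn)) h2
    (card_lt_of_lt (lt_of_le_of_ne h.le fun e => huW (e ▸ huE))) h1 hsq
  obtain ⟨c, hc, hac⟩ := exists_conj_fixed_of_not_dvd hs (a := a) (fun y hy => by
    simp only [mem_filter, Finset.mem_univ, true_and] at hy ⊢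
    refine ⟨h.normal.conj_mem y hy.1 a, ?_⟩
    rw [conj_pow, hy.2, ← haW _ (h.sq u huE), mul_inv_cancel_right]) ha h3
  simp only [mem_filter, Finset.mem_univ, true_and] at hc
  rw [mul_inv_eq_iff_eq_mul] at hac
  have h4 : ⁅c, u⁆ = 1 := by
    have h5 := h.comm_mem hc.1 hx
    have h6 : c * x * c⁻¹ = ⁅c, x⁆ * x := by rw [commutatorElement_def]; group
    have h7 : c * u * c⁻¹ = u := by
      calc c * u * c⁻¹ = (c * a) * x * (c * a)⁻¹ * (c * x * c⁻¹)⁻¹ := by rw [hu]; group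
        _ = (a * ⁅c, x⁆) * x * a⁻¹ * x⁻¹ * ⁅c, x⁆⁻¹ := by
          rw [← hac, h6, commutatorElement_def]; group
        _ = ⁅c, x⁆ * u * ⁅c, x⁆⁻¹ := by rw [← haW _ h5, hu]; group
        _ = u := by rw [h.cent _ h5 u huE, mul_inv_cancel_right]
    rw [commutatorElement_def, h7, mul_inv_cancel]
  have h5 : u * c ∈ W := by
    rw [h.inv, h.mul_sq huE hc.1, h4, mul_one, hc.2, ← pow_two]
    exact (h.inv _).1 (h.sq u huE)
  have h6 := haW _ h5
  calc a * u = a * (u * c) * c⁻¹ := by group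
    _ = u * a := by rw [← h6, mul_assoc u, ← hac]; group

end Aniso

end CfsgLib.TwoLen
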