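import Mathlib
import Cfsg.Agent.Lib.TwoLen.Aniso
import Cfsg.Agent.Lib.HH.Ambient
import Cfsg.Agent.Lib.PLocal.QuadSep
import Cfsg.Agent.Lib.Coprime.Sylow

/-!
Thompson: a solvable group with one class of involutions and `2`-rank at least `2` has
`2`-length one.
-/

set_option autoImplicit false

namespace CfsgLib.TwoLen

open Subgroup Cfsg CfsgLib.PLocal CfsgLib.Core CfsgLib.PLen
open scoped commutatorElement Pointwise

universe u

variable {G : Type u} [Group G]

theorem mem_centralizer_of_transitive [Finite G] {W N : Subgroup G} [hN : N.Normal]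
    (hW : ∀ a ∈ W, ∀ b ∈ W, a * b = b * a) (htr : ∀ x ∈ W, ∀ y ∈ W, x ≠ 1 → y ≠ 1 → IsConj x y)
    [hWn : W.Normal] (hNN : ⁅N, N⁆ ≤ centralizer (W : Set G)) {a : G} (ha : a ∈ N) {w : G}
    (hw : w ∈ W) (hw1 : w ≠ 1) (haw : a * w = w * a) : a ∈ centralizer (W : Set G) := by
  set U : G → Subgroup G := fun x => closure {y | ∃ n ∈ N, y = n * x * n⁻¹} with hU
  have hself : ∀ x, x ∈ U x := fun x => subset_closure ⟨1, one_mem _, by simp⟩
  have hmap : ∀ g x, (U x).map (MulAut.conj g).toMonoidHom ≤ U (g * x * g⁻¹) := fun g x => by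
    rw [hU, MonoidHom.map_closure]
    refine closure_mono ?_
    rintro _ ⟨_, ⟨n, hn, rfl⟩, rfl⟩
    exact ⟨g * n * g⁻¹, hN.conj_mem n hn g, by simp; group⟩
  have hinv : ∀ x, ∀ n ∈ N, ∀ y ∈ U x, n * y * n⁻¹ ∈ U x := fun x n hn y hy => by
    have : (U x).map (MulAut.conj n).toMonoidHom ≤ U x := by
      rw [hU, MonoidHom.map_closure]
      refine closure_mono ?_
      rintro _ ⟨_, ⟨m, hm, rfl⟩, rfl⟩
      exact ⟨n * m, mul_mem hn hm, by simp; group⟩
    exact this (mem_map_of_mem _ hy)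
  have hUW : ∀ x ∈ W, U x ≤ W := fun x hx => (closure_le _).2 (by
    rintro _ ⟨n, -, rfl⟩
    exact hWn.conj_mem x hx n)
  have heq : ∀ x ∈ W, x ≠ 1 → ∀ y ∈ U x, y ≠ 1 → U y = U x := fun x hx hx1 y hy hy1 => by
    refine eq_of_le_of_card_le ((closure_le _).2 ?_) ?_
    · rintro _ ⟨n, hn, rfl⟩
      exact hinv x n hn y hy
    · obtain ⟨g, rfl⟩ := isConj_iff.1 (htr x hx y (hUW x hx hy) hx1 hy1)
      rw [← card_map_conj (U x) g]
      exact card_le_of_le (hmap g x)
  have hUw : U w ≤ centralizer {a} := (closure_le _).2 (by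
    rintro _ ⟨n, hn, rfl⟩
    refine mem_centralizer_singleton_iff.2 ?_
    have h1 := hNN (commutator_mem_commutator (N.inv_mem ha) (N.inv_mem hn)) w hw
    rw [commutatorElement_def, inv_inv, inv_inv] at h1
    calc n * w * n⁻¹ * a = n * (w * a⁻¹ * a) * n⁻¹ * a := by group
      _ = n * a * (w * (a⁻¹ * n⁻¹ * a * n)) * n⁻¹ := by
        rw [show w * a⁻¹ * a = a * w * a⁻¹ by rw [haw]; group]; group
      _ = n * a * (a⁻¹ * n⁻¹ * a * n * w) * n⁻¹ := by rw [h1]
      _ = _ := by group)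
  intro v hv
  by_contra hva
  have hv1 : v ≠ 1 := by rintro rfl; simp at hva
  have hwv1 : w * v ≠ 1 := fun h => hva (by
    rw [eq_inv_of_mul_eq_one_right h, inv_mul_eq_iff_eq_mul, ← mul_assoc, ← haw]; group)
  have hc1 : a * v * a⁻¹ * v⁻¹ ≠ 1 := fun h => hva (by
    rw [mul_inv_eq_one, mul_inv_eq_iff_eq_mul] at h; exact h.symm)
  have hc : ∀ x, a * x * a⁻¹ * x⁻¹ ∈ U x := fun x =>
    mul_mem (hinv x a ha x (hself x)) (inv_mem (hself x))
  have h1 : a * (w * v) * a⁻¹ * (w * v)⁻¹ = a * v * a⁻¹ * v⁻¹ := by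
    have h2 := hW w hw _ (mul_mem (hWn.conj_mem v hv a) (inv_mem hv))
    calc _ = w * (a * v * a⁻¹ * v⁻¹) * w⁻¹ := by rw [← mul_assoc a, haw]; group
      _ = _ := by rw [h2]; group
  have h2 : U (w * v) = U v := by
    rw [← heq _ (mul_mem hw hv) hwv1 _ (hc _) (h1 ▸ hc1), h1, heq v hv hv1 _ (hc v) hc1]
  have h3 : w ∈ U v := by
    have := mul_mem (h2 ▸ hself (w * v)) (inv_mem (hself v))
    rwa [mul_inv_cancel_right] at this
  exact hva (mem_centralizer_singleton_iff.1 (hUw (heq v hv hv1 w h3 hw1 ▸ hself v)))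

theorem exists_fpf [Finite G] [Group.IsSolvable G] {W : Subgroup G} [W.Normal]
    (hW : ∀ a ∈ W, ∀ b ∈ W, a * b = b * a) (hW2 : IsPGroup 2 W)
    (htr : ∀ x ∈ W, ∀ y ∈ W, x ≠ 1 → y ≠ 1 → IsConj x y)
    (hne : centralizer (W : Set G) ≠ ⊤) :
    ∃ (s k : ℕ) (g : G), s.Prime ∧ s ≠ 2 ∧ s ∣ Nat.card W - 1 ∧ g ^ s ^ k = 1 ∧
      g ^ s ∈ centralizer (W : Set G) ∧ g ∉ centralizer (W : Set G) ∧
      ∀ w ∈ W, g * w = w * g → w = 1 := by
  classical
  set C := centralizer (W : Set G) with hC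
  have : Nontrivial (G ⧸ C) := QuotientGroup.nontrivial_iff.2 hne
  obtain ⟨s, A, hs, hAn, hA0, hA, -⟩ := exists_elementaryAbelian_minimal_normal (G ⧸ C)
  have := Fact.mk hs
  obtain ⟨⟨y, hy⟩, hy1⟩ := ne_bot_iff_exists_ne_one.1 hA0
  obtain ⟨g, rfl, k, hk⟩ := exists_pElem_lift (p := s) (QuotientGroup.mk'_surjective C) (y := y)
    ⟨1, by rw [pow_one]; exact hA.2 y hy⟩
  have hgC : g ∉ C := fun h => hy1 (Subtype.ext ((QuotientGroup.eq_one_iff g).2 h))
  have hfpf : ∀ w ∈ W, g * w = w * g → w = 1 := fun w hw h => by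
    by_contra hw1
    refine hgC (mem_centralizer_of_transitive (N := A.comap (QuotientGroup.mk' C)) hW htr ?_ hy
      hw hw1 h)
    rw [commutator_le]
    intro a ha b hb
    rw [← QuotientGroup.eq_one_iff, ← QuotientGroup.mk'_apply, map_commutatorElement,
      commutatorElement_eq_one_iff_mul_comm]
    exact isMulCommutative_iff_forall.1 hA.1 _ ha _ hb
  have hW0 : W ≠ ⊥ := by
    rintro rfl
    exact hgC fun x hx => by rw [mem_bot.1 hx, one_mul, mul_one]
  have := Fintype.ofFinite G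
  have hdvd : s ∣ Nat.card W - 1 := by
    by_contra h
    obtain ⟨x, hx, hgx⟩ := exists_conj_fixed_of_not_dvd hs
      (S := (Finset.univ.filter (· ∈ W)).erase 1) (a := g) (fun x hx => by
        simp only [Finset.mem_erase, Finset.mem_filter, Finset.mem_univ, true_and] at hx ⊢
        exact ⟨by simpa using hx.1, Normal.conj_mem inferInstance x hx.2 g⟩) hk
      (by rwa [Finset.card_erase_of_mem (by simp), card_filter_mem])
    simp only [Finset.mem_erase, Finset.mem_filter, Finset.mem_univ, true_and] at hx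
    exact hx.1 (hfpf x hx.2 (mul_inv_eq_iff_eq_mul.1 hgx))
  refine ⟨s, k, g, hs, ?_, hdvd, hk, (QuotientGroup.eq_one_iff _).1 (hA.2 _ hy), hgC, hfpf⟩
  rintro rfl
  have h1 := dvd_card_of_isPGroup_of_ne_bot hW2 hW0
  have h2 : 0 < Nat.card W := Nat.card_pos
  omega

theorem plen_one_of_oneClass [Finite G] [Group.IsSolvable G]
    (hc : centralizer (pCore 2 G : Set G) ≤ pCore 2 G)
    (hconj : ∀ x y : G, x ≠ 1 → x ^ 2 = 1 → y ≠ 1 → y ^ 2 = 1 → IsConj x y)
    {x₀ y₀ : G} (hxy : x₀ ≠ y₀) (hx1 : x₀ ≠ 1) (hx2 : x₀ ^ 2 = 1) (hy1 : y₀ ≠ 1)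
    (hy2 : y₀ ^ 2 = 1) : PLengthLE 2 1 G := by
  have hone : OneClass 2 G := fun C _ x y hx hy hxC => by
    obtain ⟨g, rfl⟩ := isConj_iff.1 (hconj x y (by rintro rfl; simp at hx)
      (hx ▸ pow_orderOf_eq_one x) (by rintro rfl; simp at hy) (hy ▸ pow_orderOf_eq_one y))
    exact Normal.conj_mem inferInstance x hxC g
  set V := pCore 2 G with hV
  have hVp : IsPGroup 2 V := PSolv.isPGroup_pCore
  have hV0 : V ≠ ⊥ := fun h => hx1 (by
    rw [← mem_bot, ← h]
    exact hc fun y hy => by rw [h] at hy; rw [mem_bot.1 hy, one_mul, mul_one])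
  refine (hone.plen_one_or hV0).elim id fun hL => ?_
  exfalso
  have := opp_characteristic 2 G
  set L := opp 2 G with hLdef
  have := Core.isMulCommutative_inf_centralizer V
  set W := omegaOne 2 (V ⊓ centralizer (V : Set G)) with hWdef
  have hWn : W.Normal := omegaOne_normal _ _
  have hWi : ∀ x, x ∈ W ↔ x ^ 2 = 1 := fun x => ⟨pow_eq_one_of_mem_omegaOne, fun h => by
    by_cases hx : x = 1
    · rw [hx]; exact one_mem _
    exact Core.mem_omegaOne (hone.mem_center hV0 (orderOf_eq_prime h hx)) h⟩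
  have hWV : W ≤ V ⊓ centralizer (V : Set G) := omegaOne_le _ _
  have hLW : L ≤ centralizer (W : Set G) := fun a ha w hw => by
    by_cases hx : w = 1
    · rw [hx, one_mul, mul_one]
    exact (hL w (orderOf_eq_prime ((hWi w).1 hw) hx) a ha).symm
  set f := QuotientGroup.mk' W with hf
  have hf1 : ∀ x, f x = 1 ↔ x ∈ W := fun x => QuotientGroup.eq_one_iff x
  have := Core.isMulCommutative_inf_centralizer (V.map f)
  have hVf : (V.map f).Normal := Normal.map inferInstance f (QuotientGroup.mk'_surjective W)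
  set E' := omegaOne 2 (V.map f ⊓ centralizer (V.map f : Set (G ⧸ W))) with hE'
  have hE'n : E'.Normal := omegaOne_normal _ _
  set E := E'.comap f with hE
  have hEV : E ≤ V := fun x hx => by
    obtain ⟨v, hv, e⟩ := (omegaOne_le _ _ hx).1
    have := (hWV ((hf1 (v⁻¹ * x)).1 (by rw [map_mul, map_inv, e, inv_mul_cancel]))).1
    simpa using mul_mem hv this
  have hA : Aniso W E := ⟨fun w hw => by rw [hE, mem_comap, (hf1 w).2 hw]; exact one_mem _,
    fun w hw x hx => ((hWV hw).2 x (hEV hx)).symm,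
    fun x hx => (hf1 _).1 (by rw [map_pow]; exact pow_eq_one_of_mem_omegaOne hx), hWi,
    inferInstance, hconj⟩
  -- elements of odd order act faithfully on `E`
  have hfaith : ∀ a : G, Odd (orderOf a) → a ∈ centralizer (E : Set G) → a = 1 := by
    intro a ha haE
    obtain ⟨D, hD, -, hD2, hD3⟩ := PGroup.exists_critical (p := 2) (G := V) hVp
    have hao : (orderOf (MulAut.conjNormal a : MulAut V)).Coprime 2 :=
      Nat.Coprime.coprime_dvd_left (orderOf_map_dvd _ a) (Nat.coprime_two_right.2 ha)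
    have h1 := PGroup.aut_eq_one_of_fix_self_centralizing hVp hD3 hao
      (PGroup.aut_apply_eq_of_fix_pow_eq_one (p := 2) (n := 2) two_ne_zero (by norm_num) hao
        (hVp.to_subgroup D) (fun x hx => PGroup.apply_mem_of_characteristic _ hx) fun x hx h4 => by
        have h5 : (x : G) ^ 2 ∈ W := (hWi _).2 (by
          rw [← pow_mul, ← pow_two 2]; exact congrArg Subtype.val h4)
        have h6 : (x : G) ∈ E := by
          refine Core.mem_omegaOne ⟨mem_map_of_mem f x.2, ?_⟩ (by rw [← map_pow]; exact (hf1 _).2 h5)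
          rintro _ ⟨v, hv, rfl⟩
          rw [eq_comm, ← commutatorElement_eq_one_iff_mul_comm, ← map_commutatorElement, hf1, hWi,
            ← commutatorElement_pow_left_of_commute
              (congrArg Subtype.val (hD2 x hx ⟨v, hv⟩ x hx) : _ = _),
            commutatorElement_eq_one_iff_mul_comm]
          exact ((hWV h5).2 v hv).symm
        exact Subtype.ext (by rw [MulAut.conjNormal_apply, ← haE x h6, mul_inv_cancel_right]))
    have h2 : a ∈ V := hc fun v hv => by
      have := congrArg Subtype.val (DFunLike.congr_fun h1 ⟨v, hv⟩)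
      rw [MulAut.conjNormal_apply, MulAut.one_apply, mul_inv_eq_iff_eq_mul] at this
      exact this.symm
    obtain ⟨k, hk⟩ := isPGroup_subgroup_iff.1 hVp a h2
    exact ((pow_eq_one_iff_of_coprime ((Nat.coprime_two_right.2 ha).pow_right k)).1
      ⟨pow_orderOf_eq_one a, hk⟩)
  have hW0 : W ≠ ⊥ := fun h => hx1 (by rw [← mem_bot, ← h]; exact (hWi _).2 hx2)
  obtain ⟨s, k, g, hs, hs2, hsq, hgk, hgs, hgC, hfpf⟩ := exists_fpf (W := W)
    (fun a ha b hb => ((hWV ha).2 b (hWV hb).1).symm) (hVp.to_le fun w hw => (hWV hw).1)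
    (fun x hx y hy h1 h2 => hconj x y h1 ((hWi x).1 hx) h2 ((hWi y).1 hy)) fun h => by
      obtain ⟨c, rfl⟩ := isConj_iff.1 (hconj x₀ y₀ hx1 hx2 hy1 hy2)
      have h1 : c ∈ centralizer (W : Set G) := h ▸ mem_top c
      exact hxy (by rw [← h1 x₀ ((hWi _).2 hx2), mul_inv_cancel_right])
  have := Fact.mk hs
  have hodd : ∀ {r : ℕ}, r.Prime → r ≠ 2 → ∀ (a : G) (j : ℕ), a ^ r ^ j = 1 → Odd (orderOf a) :=
    fun hr hr2 a j h => ((hr.odd_of_ne_two hr2).pow (n := j)).of_dvd_nat
      (orderOf_dvd_of_pow_eq_one h)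
  have hsC : ∀ (a : G) (j : ℕ), a ^ s ^ j = 1 → a ∈ centralizer (W : Set G) → a = 1 :=
    fun a j h1 h2 => hfaith a (hodd hs hs2 a j h1) (hA.centralizes hs hs2 hsq hW0 h1 h2)
  have hg1 : g ^ s = 1 := hsC _ k (by rw [← pow_mul, mul_comm, pow_mul, hgk, one_pow]) hgs
  have hsL : ¬ s ∣ Nat.card L := fun h => by
    obtain ⟨a, ha, has⟩ := exists_mem_orderOf_eq_of_dvd_card hs h
    have h1 := hsC a 1 (by rw [pow_one, ← has, pow_orderOf_eq_one]) (hLW ha)
    rw [h1, orderOf_one] at has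
    exact hs.one_lt.ne has
  have hcop : (Nat.card (zpowers g)).Coprime (Nat.card L) :=
    isPGroup_coprime_card (isPGroup_zpowers_iff.2 ⟨k, hgk⟩)
      (hs.coprime_iff_not_dvd.2 hsL).symm
  have h1 : V ⊔ (L ⊓ centralizer {g}) = L := by
    refine Coprime.eq_of_forall_invariant_pgroup_le (A := zpowers g) le_normalizer_of_normal hcop
      (Or.inl (Coprime.isSolvable_zpowers g)) (sup_le (pCore_le_opp 2 G) inf_le_left)
      fun r P hr hPL hP _ hgP => ?_
    have := Fact.mk hr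
    by_cases hr2 : r = 2
    · subst hr2
      refine le_sup_left.trans' fun x hx => (QuotientGroup.eq_one_iff x).1 ?_
      rw [← mem_bot, ← isPGroup_inf_eq_bot_of_coprime (hP.map (QuotientGroup.mk' V))
        (PSolv.coprime_card_pPrimeCore (p := 2) (G := G ⧸ V))]
      exact ⟨mem_map_of_mem _ hx, hPL hx⟩
    refine le_sup_right.trans' fun y hy => ⟨hPL hy, mem_centralizer_singleton_iff.2 ?_⟩
    by_contra hyg
    have hrs : s ≠ r := by
      rintro rfl
      refine hsL ((dvd_card_of_isPGroup_of_ne_bot hP ?_).trans (card_dvd_of_le hPL))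
      rintro rfl
      exact hyg (by rw [mem_bot.1 hy, one_mul, mul_one])
    have hgP' := hgP (mem_zpowers g)
    refine hr2 (HH.fermat_of_fpf Nat.prime_two hr hs hrs (Ne.symm hr2)
      (isElementaryAbelian_omegaOne 2 (V.map f ⊓ centralizer (V.map f : Set (G ⧸ W))))
      (hP.map f) le_normalizer_of_normal (x := f g) (le_normalizer_of_normal (mem_top _))
      (le_normalizer_map f (mem_map_of_mem f hgP'))
      (by rw [← map_pow, hg1, map_one]; exact one_mem _)
      ?_ ⟨f y, mem_map_of_mem f hy, fun h => hyg ?_⟩).1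
    · intro v hv h
      obtain ⟨x, rfl⟩ := QuotientGroup.mk'_surjective W v
      have h2 : g * x * g⁻¹ * x⁻¹ ∈ W := (hf1 _).1 (by
        rw [map_mul, map_mul, map_mul, show f g * f x = f x * f g from h, map_inv, map_inv]
        group)
      refine (hf1 x).2 ((hWi x).2 (hfpf _ (hA.sq x hv) ?_))
      have h3 : g * x ^ 2 * g⁻¹ = (g * x * g⁻¹ * x⁻¹ * x) ^ 2 := by rw [← conj_pow]; group
      rw [Commute.mul_pow (hA.cent _ h2 x hv), (hWi _).1 h2, one_mul, mul_inv_eq_iff_eq_mul] at h3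
      exact h3
    · set u := g * y * g⁻¹ * y⁻¹ with hu
      have huP : u ∈ P := mul_mem ((mem_normalizer_iff.1 hgP' y).1 hy) (inv_mem hy)
      obtain ⟨j, hj⟩ := isPGroup_subgroup_iff.1 hP u huP
      have huo := hodd hr hr2 u j hj
      have h2 := hfaith u huo fun x hx => (hA.comm_of_mem huo (hLW (hPL huP)) ((hf1 _).1 (by
        have h3 : f x * f u = f u * f x := by
          rw [hu]
          simp only [map_mul, map_inv]
          exact h (f x) hx
        rw [map_mul, map_mul, map_mul, ← h3, map_inv, map_inv]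
        group))).symm
      rw [hu, mul_inv_eq_one, mul_inv_eq_iff_eq_mul] at h2
      exact h2.symm
  refine hgC (hLW (centralizer_pPrimeCore_le (p := 2) (G := G ⧸ V) PSolv.of_isSolvable
    PSolv.pCore_quotient fun y hy => ?_))
  obtain ⟨y, rfl⟩ := QuotientGroup.mk'_surjective V y
  have h2 : y ∈ V ⊔ (L ⊓ centralizer {g}) := h1.symm ▸ hy
  obtain ⟨v, hv, c, hc', rfl⟩ := mem_sup_of_normal_left.1 h2
  rw [map_mul, show QuotientGroup.mk' V v = 1 from (QuotientGroup.eq_one_iff v).2 hv, one_mul,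
    ← map_mul, mem_centralizer_singleton_iff.1 hc'.2, map_mul]

end CfsgLib.TwoLen
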